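import Cfsg.Agent.Lib.SporRecognition.CosetCert.Tables
import Mathlib.Data.ZMod.Basic
import Mathlib.Data.Matrix.Mul
import Mathlib.LinearAlgebra.Matrix.Notation

/-!
Matrices over `ZMod 7` given by packed rows, checked through the images of the standard row vectors.
-/

set_option autoImplicit false

namespace CfsgLib.ONRep

open CfsgLib.SporRecognition.CosetCert

/-- A field of eleven bits. -/
noncomputable def fld (v i : Nat) : Nat := Nat.land (Nat.shiftRight v (Nat.mul 11 i)) 2047

/-- The row vector `v` times a matrix, entry `j`, with all sums unreduced: `Σ_i v_i * row_i` packed. -/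
noncomputable def mulAcc (row : Nat → Nat) (v : Nat) (k : Nat) : Nat :=
  Nat.rec 0 (fun i ih => Nat.add ih (Nat.mul (fld v i) (row i))) k

/-- Reduce every field modulo seven. -/
noncomputable def reduce (s : Nat) (k : Nat) : Nat :=
  Nat.rec 0 (fun i ih => Nat.add ih (Nat.shiftLeft (Nat.mod (fld s i) 7) (Nat.mul 11 i))) k

/-- One step. -/
noncomputable def vstep (row : Nat → Nat) (k v : Nat) : Nat := reduce (mulAcc row v k) k

/-- A word applied to a row vector, leftmost letter first. -/
noncomputable def vword (rows : Nat → Nat → Nat) (k : Nat) (w : List Nat) : Nat → Nat :=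
  List.rec (fun v => v) (fun j _ ih v => ih (vstep (rows j) k v)) w

/-- All fields below `k` are digits modulo seven. -/
def Small (k v : Nat) : Prop := ∀ i, fld v i ≤ if i < k then 6 else 0

/-- The vector of a packed number. -/
noncomputable def dec (k v : Nat) : Fin k → ZMod 7 := fun i => (fld v i : ZMod 7)

/-- The matrix of packed rows. -/
noncomputable def matOf (row : Nat → Nat) (k : Nat) : Matrix (Fin k) (Fin k) (ZMod 7) :=
  Matrix.of fun i => dec k (row i)

/-- Rows are well formed. -/
noncomputable def rowsOK (row : Nat → Nat) (k : Nat) : Bool :=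
  allBelow 6 k fun i => Nat.blt (row i) (Nat.shiftLeft 1 (Nat.mul 11 k)) &&
    allBelow 6 k fun j => Nat.ble (fld (row i) j) 6

theorem fld_eq (v i : Nat) : fld v i = v / 2 ^ (11 * i) % 2 ^ 11 := by
  show (v >>> (11 * i)) &&& 2047 = _
  rw [Nat.shiftRight_eq_div_pow, show (2047 : Nat) = 2 ^ 11 - 1 from rfl, Nat.and_two_pow_sub_one_eq_mod]

/-- Number from digits. -/
def pack (f : Nat → Nat) : Nat → Nat
  | 0 => 0
  | k + 1 => pack f k + f k * 2 ^ (11 * k)

theorem pack_lt {f : Nat → Nat} : ∀ {k}, (∀ i < k, f i < 2 ^ 11) → pack f k < 2 ^ (11 * k)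
  | 0, _ => by simp [pack]
  | k + 1, h => by
    have ih := pack_lt (k := k) fun i hi => h i (by omega)
    have hk := h k (by omega)
    rw [pack, Nat.mul_succ, pow_add]
    calc pack f k + f k * 2 ^ (11 * k) < 2 ^ (11 * k) + f k * 2 ^ (11 * k) := by omega
      _ = (f k + 1) * 2 ^ (11 * k) := by ring
      _ ≤ 2 ^ 11 * 2 ^ (11 * k) := Nat.mul_le_mul_right _ hk
      _ = _ := by ring

theorem fld_pack {f : Nat → Nat} : ∀ {k}, (∀ i < k, f i < 2 ^ 11) → ∀ j,
    fld (pack f k) j = if j < k then f j else 0
  | 0, _, j => by simp [pack, fld_eq]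
  | k + 1, h, j => by
    have hlt := pack_lt (k := k) fun i hi => h i (by omega)
    have ih := fld_pack (k := k) (fun i hi => h i (by omega)) j
    rw [fld_eq] at ih ⊢
    rcases Nat.lt_trichotomy j k with hj | hj | hj
    · rw [if_pos hj] at ih
      rw [if_pos (by omega), ← ih, pack,
        show f k * 2 ^ (11 * k) = f k * 2 ^ (11 * (k - j - 1)) * 2 ^ 11 * 2 ^ (11 * j) by
          rw [mul_assoc, mul_assoc, ← pow_add, ← pow_add]; congr 2; omega,
        Nat.add_mul_div_right _ _ (by positivity), Nat.add_mul_mod_self_right]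
    · subst hj
      rw [if_pos (by omega), pack, Nat.add_mul_div_right _ _ (by positivity), Nat.div_eq_of_lt hlt, zero_add,
        Nat.mod_eq_of_lt (h j (by omega))]
    · rw [if_neg (by omega), Nat.div_eq_of_lt ((pack_lt (f := f) (k := k + 1) h).trans_le
        (Nat.pow_le_pow_right (by norm_num) (by omega))), Nat.zero_mod]

theorem eq_pack {k v : Nat} (hv : v < 2 ^ (11 * k)) : v = pack (fld v) k := by
  induction k generalizing v with
  | zero => simp at hv; simp [pack, hv]
  | succ k ih =>
    rw [pack]
    have h1 := ih (Nat.mod_lt v (Nat.two_pow_pos (11 * k)))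
    have h2 : ∀ i < k, fld (v % 2 ^ (11 * k)) i = fld v i := fun i hi => by
      simp only [fld_eq]
      rw [show 11 * k = 11 * i + (11 * (k - i)) by rw [Nat.mul_sub]; omega, pow_add, Nat.mod_mul_right_div_self]
      exact Nat.mod_mod_of_dvd _ (pow_dvd_pow 2 (by omega))
    have h3 : pack (fld (v % 2 ^ (11 * k))) k = pack (fld v) k := by
      have : ∀ m ≤ k, pack (fld (v % 2 ^ (11 * k))) m = pack (fld v) m := by
        intro m hm
        induction m with
        | zero => rfl
        | succ m ihm => rw [pack, pack, ihm (by omega), h2 m (by omega)]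
      exact this k le_rfl
    rw [← h3, ← h1, fld_eq, Nat.mod_eq_of_lt (a := v / 2 ^ (11 * k))]
    · exact (Nat.mod_add_div' v _).symm
    · rw [Nat.div_lt_iff_lt_mul (by positivity), ← pow_add]
      exact hv.trans_le (Nat.pow_le_pow_right (by norm_num) (by omega))

variable {row : Nat → Nat} {k : Nat}

theorem rowsOK.spec (h : rowsOK row k = true) {i : Nat} (hi : i < k) :
    row i < 2 ^ (11 * k) ∧ ∀ j < k, fld (row i) j ≤ 6 := by
  have := allBelow_spec h i hi
  simp only [Bool.and_eq_true] at this
  refine ⟨?_, fun j hj => Nat.le_of_ble_eq_true (allBelow_spec this.2 j hj)⟩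
  have h1 : row i < 1 <<< (11 * k) := by simpa [Nat.blt_eq] using this.1
  simpa [Nat.shiftLeft_eq] using h1

theorem mulAcc_eq (h : rowsOK row k = true) (v : Nat) (hv : ∀ i < k, fld v i ≤ 6) :
    ∀ m ≤ k, mulAcc row v m = pack (fun j => ∑ i ∈ Finset.range m, fld v i * fld (row i) j) k
  | 0, _ => by
    show (0 : Nat) = _
    clear h hv
    induction k with
    | zero => rfl
    | succ k ih => simp [pack]; simpa using ih
  | m + 1, hm => by
    show mulAcc row v m + fld v m * row m = _
    rw [mulAcc_eq h v hv m (by omega)]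
    conv_lhs => arg 2; rw [eq_pack (rowsOK.spec h (show m < k by omega)).1]
    have : ∀ k' , pack (fun j => ∑ i ∈ Finset.range m, fld v i * fld (row i) j) k' +
        fld v m * pack (fld (row m)) k' =
        pack (fun j => ∑ i ∈ Finset.range (m + 1), fld v i * fld (row i) j) k' := by
      intro k'
      induction k' with
      | zero => simp [pack]
      | succ k' ih =>
        simp only [pack, Finset.sum_range_succ] at ih ⊢
        rw [← ih]
        ring
    exact this k

theorem vstep_spec (hk : k ≤ 56) (h : rowsOK row k = true) (v : Nat) (hv : ∀ i < k, fld v i ≤ 6) :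
    (∀ i < k, fld (vstep row k v) i ≤ 6) ∧
      dec k (vstep row k v) = Matrix.vecMul (dec k v) (matOf row k) := by
  set S : Nat → Nat := fun j => ∑ i ∈ Finset.range k, fld v i * fld (row i) j with hS
  have hSlt : ∀ j < k, S j < 2 ^ 11 := fun j hj => by
    calc S j ≤ ∑ i ∈ Finset.range k, 36 := Finset.sum_le_sum fun i hi =>
          Nat.mul_le_mul (hv i (Finset.mem_range.1 hi)) ((rowsOK.spec h (Finset.mem_range.1 hi)).2 j hj)
      _ = k * 36 := by simp
      _ < 2 ^ 11 := by omega
  have hred : ∀ s m, reduce s m = pack (fun j => fld s j % 7) m := by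
    intro s m
    induction m with
    | zero => rfl
    | succ m ih =>
      show reduce s m + (fld s m % 7) <<< (11 * m) = _
      rw [ih, pack, Nat.shiftLeft_eq]
  have hval : ∀ i < k, fld (vstep row k v) i = S i % 7 := fun i hi => by
    rw [vstep, hred, fld_pack (fun j _ => by omega) i, if_pos hi, mulAcc_eq h v hv k le_rfl,
      fld_pack hSlt i, if_pos hi]
  refine ⟨fun i hi => by rw [hval i hi]; omega, funext fun j => ?_⟩
  simp only [dec, Matrix.vecMul, dotProduct, matOf, Matrix.of_apply]
  rw [hval j j.2, ZMod.natCast_mod, hS, Nat.cast_sum, Finset.sum_range]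
  simp

/-- Unit vector `e` scaled by `c`, packed. -/
noncomputable def unitVec (c e : Nat) : Nat := Nat.shiftLeft c (Nat.mul 11 e)

theorem fld_unitVec {c e : Nat} (hc : c < 2 ^ 11) (j : Nat) :
    fld (unitVec c e) j = if j = e then c else 0 := by
  have hp : unitVec c e = pack (fun i => if i = e then c else 0) (e + 1) := by
    show c <<< (11 * e) = _
    have : ∀ m ≤ e, pack (fun i => if i = e then c else 0) m = 0 := by
      intro m hm
      induction m with
      | zero => rfl
      | succ m ih => rw [pack, ih (by omega), if_neg (by omega), zero_mul, add_zero]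
    rw [pack, this e le_rfl, if_pos rfl, zero_add, Nat.shiftLeft_eq]
  rw [hp, fld_pack (fun i _ => by split <;> omega) j]
  split_ifs <;> omega

/-- The word is the scalar `c`. -/
noncomputable def scalStep (rows : Nat → Nat → Nat) (k : Nat) (w : List Nat) (c i : Nat) : Bool :=
  Nat.beq (vword rows k w (unitVec 1 i)) (unitVec c i)

theorem vword_spec {rows : Nat → Nat → Nat} (hk : k ≤ 56) :
    ∀ (w : List Nat), (∀ j ∈ w, rowsOK (rows j) k = true) → ∀ v, (∀ i < k, fld v i ≤ 6) →
      dec k (vword rows k w v) = Matrix.vecMul (dec k v) (w.map fun j => matOf (rows j) k).prod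
  | [], _, v, _ => by simp [vword]
  | j :: w, hw, v, hv => by
    obtain ⟨h1, h2⟩ := vstep_spec hk (hw j (by simp)) v hv
    rw [show vword rows k (j :: w) v = vword rows k w (vstep (rows j) k v) from rfl,
      vword_spec hk w (fun i hi => hw i (by simp [hi])) _ h1, h2, List.map_cons, List.prod_cons,
      Matrix.vecMul_vecMul]

theorem prod_eq_scalar {rows : Nat → Nat → Nat} (hk : k ≤ 56) (w : List Nat)
    (hw : ∀ j ∈ w, rowsOK (rows j) k = true) (c : Nat) (hc : c < 2 ^ 11)
    (h : allBelow 6 k (scalStep rows k w c) = true) :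
    (w.map fun j => matOf (rows j) k).prod = Matrix.scalar (Fin k) (c : ZMod 7) := by
  ext i j
  have h1 := Nat.eq_of_beq_eq_true (allBelow_spec h i i.2)
  have h2 := vword_spec (k := k) (rows := rows) hk w hw (unitVec 1 i) (fun m _ => by
    rw [fld_unitVec (by norm_num)]; split <;> omega)
  have h3 : dec k (unitVec 1 i) = Pi.single i 1 := by
    funext m
    simp only [dec, fld_unitVec (show (1 : Nat) < 2 ^ 11 by norm_num), Pi.single_apply, Fin.val_inj]
    split <;> simp
  rw [h1, h3, Matrix.single_one_vecMul] at h2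
  rw [show (w.map fun j => matOf (rows j) k).prod i j = dec k (unitVec c i) j from (congrFun h2 j).symm]
  simp only [dec, fld_unitVec hc, Matrix.scalar_apply, Matrix.diagonal_apply, Fin.val_inj]
  by_cases hij : i = j
  · subst hij; simp
  · rw [if_neg hij, if_neg (Ne.symm hij), Nat.cast_zero]

end CfsgLib.ONRep
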