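import Cfsg.Agent.Lib.ONRep.Data
import Cfsg.Agent.Lib.ONMult.Cover
import Cfsg.Agent.S1699
import Cfsg.Prelude.Def_Sporadic
import Mathlib.LinearAlgebra.Matrix.SpecialLinearGroup

/-! The triple cover of the presented O'Nan group as matrices of size 45 over the field with seven elements. -/

set_option autoImplicit false
set_option maxRecDepth 20000
set_option linter.style.haveILetI false
set_option linter.constructorNameAsVariable false

namespace CfsgLib.ONRep

open CfsgLib.SporRecognition.CosetCert CfsgLib.SporRecognition.Cert CfsgLib.ONMult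

/-- The matrices. -/
abbrev MT := Matrix (Fin 45) (Fin 45) (ZMod 7)

/-- Index of a letter. -/
def idx : Cfsg.Spor.ON.Gen → Bool → Nat
  | .g, true => 0
  | .g, false => 1
  | .a, _ => 2
  | .b, _ => 3
  | .c, _ => 4
  | .d, _ => 5
  | .e, _ => 6
  | .f, _ => 7

theorem rows_ok : (List.range 8).all (fun j => rowsOK (rows j) 45) = true := by decide +kernel

theorem rowsOK_of {j : Nat} (hj : j < 8) : rowsOK (rows j) 45 = true :=
  List.all_eq_true.1 rows_ok j (List.mem_range.2 hj)

theorem idx_lt (x : Cfsg.Spor.ON.Gen) (b : Bool) : idx x b < 8 := by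
  cases x <;> cases b <;> decide

/-- A matrix of the list. -/
noncomputable def mat (j : Nat) : MT := matOf (rows j) 45

theorem scalar_of_check (w : List Nat) (hw : ∀ j ∈ w, j < 8) (c : Nat) (hc : c < 2 ^ 11)
    (h : allBelow 6 45 (scalStep rows 45 w c) = true) :
    (w.map mat).prod = Matrix.scalar (Fin 45) (c : ZMod 7) :=
  prod_eq_scalar (by norm_num) w (fun j hj => rowsOK_of (hw j hj)) c hc h

theorem inv_checks : (([[0, 1], [1, 0], [2, 2], [3, 3], [4, 4], [5, 5], [6, 6], [7, 7]] : List (List Nat)).all
    fun w => allBelow 6 45 (scalStep rows 45 w 1)) = true := by decide +kernel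

theorem mat_mul_not (x : Cfsg.Spor.ON.Gen) (b : Bool) : mat (idx x b) * mat (idx x !b) = 1 := by
  have h := List.all_eq_true.1 inv_checks [idx x b, idx x !b] (by cases x <;> cases b <;> decide)
  have := scalar_of_check _ (by intro j hj; simp at hj; rcases hj with rfl | rfl <;> exact idx_lt _ _) 1
    (by norm_num) h
  simpa using this

/-- The units of the generators. -/
noncomputable def genU (x : Cfsg.Spor.ON.Gen) : MTˣ :=
  ⟨mat (idx x true), mat (idx x false), mat_mul_not x true, mat_mul_not x false⟩

/-- The central scalar. -/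
noncomputable def zU : MTˣ :=
  Units.map (Matrix.scalar (Fin 45)).toMonoidHom ⟨(omega : ZMod 7), (omega : ZMod 7) * omega,
    by decide, by decide⟩

theorem rel_checks : ((ON122760.relW.zip kW).all fun p =>
    allBelow 6 45 (scalStep rows 45 (p.1.map fun x => idx x.1 x.2) (omega ^ p.2 % 7))) = true := by
  decide +kernel

theorem evalW_genU (w : List (Cfsg.Spor.ON.Gen × Bool)) :
    ((evalW genU w : MTˣ) : MT) = ((w.map fun x => idx x.1 x.2).map mat).prod := by
  rw [evalW_eq_prod, ← Units.coeHom_apply, map_list_prod, List.map_map, List.map_map]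
  congr 2
  funext x
  obtain ⟨a, b⟩ := x
  cases b <;> rfl

theorem genU_rel : ∀ p ∈ ON122760.relW.zip kW, evalW genU p.1 = zU ^ p.2 := by
  intro p hp
  apply Units.ext
  rw [evalW_genU, scalar_of_check _ (fun j hj => by
      obtain ⟨x, -, rfl⟩ := List.mem_map.1 hj; exact idx_lt _ _) _ ((Nat.mod_lt _ (by norm_num)).trans (by norm_num))
    (List.all_eq_true.1 rel_checks p hp), ZMod.natCast_mod, Nat.cast_pow, Units.val_pow_eq_pow_val, map_pow]
  rfl

/-- The representation. -/
noncomputable def repU : Cover →* MTˣ :=
  PresentedGroup.toGroup (f := fun o => o.elim zU genU) (by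
    rintro r ((rfl | ⟨x, rfl⟩) | ⟨p, hp, rfl⟩)
    · rw [map_pow, FreeGroup.lift_apply_of]
      show zU ^ 3 = 1
      rw [zU, ← map_pow]
      rw [show (⟨(omega : ZMod 7), (omega : ZMod 7) * omega, by decide, by decide⟩ : (ZMod 7)ˣ) ^ 3 = 1 from
        Units.ext (by decide), map_one]
    · simp only [map_mul, map_inv, FreeGroup.lift_apply_of, Option.elim_none, Option.elim_some]
      have hc : zU * genU x = genU x * zU := Units.ext (by
        show Matrix.scalar (Fin 45) (omega : ZMod 7) * (genU x : MT) = (genU x : MT) * Matrix.scalar (Fin 45) _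
        exact (Matrix.scalar_commute _ (fun r => Commute.all _ r) _).eq)
      rw [hc]
      group
    · rw [map_mul, map_inv, map_pow, FreeGroup.lift_apply_of, Option.elim_none, mul_inv_eq_one,
        ← genU_rel p hp, evalW, ← MonoidHom.comp_apply]
      congr 1
      apply FreeGroup.ext_hom
      intro y
      simp)

theorem zU_val : (zU : MT) = Matrix.scalar (Fin 45) (omega : ZMod 7) := rfl

theorem repU_zC : repU zC = zU := PresentedGroup.toGroup.of _

/-- A faithful image of a perfect cover with kernel of order three of a simple group. -/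
theorem exists_range {C Q M : Type*} [Group C] [Group Q] [Group M] [IsSimpleGroup Q] (π : C →* Q)
    (hπ : Function.Surjective π) {z : C} (hk : π.ker = Subgroup.zpowers z) (hz : z ∈ Subgroup.center C)
    (hz3 : orderOf z = 3) (hperf : commutator C = ⊤) (f : C →* M) (hfz : f z ≠ 1)
    (hQ : ¬ (Nat.card Q).Prime) :
    ∃ H : Subgroup M, Nat.card (Subgroup.center H) = 3 ∧ IsSimpleGroup (H ⧸ Subgroup.center H) ∧
      Nat.card (H ⧸ Subgroup.center H) = Nat.card Q := by
  have hker : f.ker = ⊥ := by
    rcases (Subgroup.Normal.map (inferInstance : f.ker.Normal) π hπ).eq_bot_or_eq_top with h | h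
    · rw [eq_bot_iff]
      intro g hg
      have hgk : g ∈ Subgroup.zpowers z := by
        rw [← hk, MonoidHom.mem_ker, ← Subgroup.mem_bot, ← h]
        exact Subgroup.mem_map_of_mem _ hg
      obtain ⟨j, rfl⟩ := hgk
      rw [MonoidHom.mem_ker, map_zpow] at hg
      have h3 : f z ^ 3 = 1 := by rw [← map_pow, ← hz3, pow_orderOf_eq_one, map_one]
      have hof : orderOf (f z) = 3 := by
        haveI := Fact.mk Nat.prime_three
        exact orderOf_eq_prime h3 hfz
      rw [Subgroup.mem_bot, ← orderOf_dvd_iff_zpow_eq_one, hz3]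
      rw [← orderOf_dvd_iff_zpow_eq_one, hof] at hg
      exact hg
    · exfalso
      have hcomm : ∀ x y, f x * f y = f y * f x := by
        have hx : ∀ x, ∃ j : ℤ, f x = f z ^ j := fun x => by
          obtain ⟨a, ha, hax⟩ : π x ∈ f.ker.map π := by rw [h]; exact Subgroup.mem_top _
          have hd : a⁻¹ * x ∈ Subgroup.zpowers z := by
            rw [← hk, MonoidHom.mem_ker, map_mul, map_inv, hax, inv_mul_cancel]
          obtain ⟨j, hj⟩ := hd
          refine ⟨j, ?_⟩
          have ha1 : f a = 1 := ha
          rw [← map_zpow, show z ^ j = a⁻¹ * x from hj, map_mul, map_inv, ha1, inv_one, one_mul]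
        intro x y
        obtain ⟨i, hi⟩ := hx x
        obtain ⟨j, hj⟩ := hx y
        rw [hi, hj, ← zpow_add, ← zpow_add, add_comm]
      have hle : commutator C ≤ f.ker := by
        rw [commutator_def, Subgroup.commutator_le]
        intro x _ y _
        rw [MonoidHom.mem_ker, map_commutatorElement, commutatorElement_eq_one_iff_mul_comm]
        exact hcomm x y
      rw [hperf] at hle
      exact hfz (hle (Subgroup.mem_top z))
  have hcen : Subgroup.center C = π.ker := by
    refine le_antisymm (fun g hg => ?_) (hk ▸ Subgroup.zpowers_le.2 hz)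
    rcases Subgroup.Normal.eq_bot_or_eq_top (H := Subgroup.center Q) inferInstance with h | h
    · rw [MonoidHom.mem_ker, ← Subgroup.mem_bot, ← h, Subgroup.mem_center_iff]
      intro u
      obtain ⟨u, rfl⟩ := hπ u
      rw [← map_mul, ← map_mul, Subgroup.mem_center_iff.1 hg u]
    · exfalso
      letI : CommGroup Q :=
        { (inferInstance : Group Q) with
          mul_comm := fun a b => Subgroup.mem_center_iff.1 (h ▸ Subgroup.mem_top b) a }
      exact hQ IsSimpleGroup.prime_card
  have hinj : Function.Injective f := (MonoidHom.ker_eq_bot_iff _).1 hker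
  let e : C ≃* f.range := MonoidHom.ofInjective hinj
  have hmapc : (Subgroup.center C).map (e : C →* f.range) = Subgroup.center f.range := by
    ext x
    simp only [Subgroup.mem_map, Subgroup.mem_center_iff]
    constructor
    · rintro ⟨g, hg, rfl⟩ y
      obtain ⟨y, rfl⟩ := e.surjective y
      show e y * e g = e g * e y
      rw [← map_mul, ← map_mul, hg y]
    · intro hx
      refine ⟨e.symm x, fun y => e.injective ?_, e.apply_symm_apply x⟩
      rw [map_mul, map_mul, e.apply_symm_apply]
      exact hx (e y)
  let q : (f.range ⧸ Subgroup.center f.range) ≃* Q :=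
    ((QuotientGroup.congr (Subgroup.center C) (Subgroup.center f.range) e hmapc).symm.trans
      (QuotientGroup.quotientMulEquivOfEq hcen)).trans (QuotientGroup.quotientKerEquivOfSurjective π hπ)
  refine ⟨f.range, ?_, q.isSimpleGroup, Nat.card_congr q.toEquiv⟩
  rw [← hmapc, ← Nat.card_congr ((Subgroup.center C).equivMapOfInjective (e : C →* f.range)
    e.injective).toEquiv, hcen, hk, Nat.card_zpowers, hz3]

attribute [local irreducible] mat rows repU zU

theorem det_repU (g : Cover) : Matrix.det ((repU g : MTˣ) : MT) = 1 := by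
  have h : (Units.map (Matrix.detMonoidHom : MT →* ZMod 7)) (repU g) = 1 :=
    DFunLike.congr_fun (cover_hom_comm ((Units.map (Matrix.detMonoidHom : MT →* ZMod 7)).comp repU)) g
  have h2 := congrArg Units.val h
  simpa only [Units.coe_map, Units.val_one, Matrix.coe_detMonoidHom] using h2

/-- The value of a unit with determinant one in the special linear group. -/
noncomputable def toSL (u : MTˣ) (h : Matrix.det (u : MT) = 1) : Matrix.SpecialLinearGroup (Fin 45) (ZMod 7) :=
  ⟨(u : MT), h⟩

/-- The representation in the special linear group. -/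
noncomputable def repSL : Cover →* Matrix.SpecialLinearGroup (Fin 45) (ZMod 7) where
  toFun g := toSL (repU g) (det_repU g)
  map_one' := by
    apply Subtype.ext
    show ((repU 1 : MTˣ) : MT) = (1 : MT)
    rw [map_one, Units.val_one]
  map_mul' g h := by
    apply Subtype.ext
    show ((repU (g * h) : MTˣ) : MT) = ((repU g : MTˣ) : MT) * ((repU h : MTˣ) : MT)
    rw [map_mul, Units.val_mul]

theorem repSL_zC : repSL zC ≠ 1 := by
  intro h
  have h0 : ((repU zC : MTˣ) : MT) = (1 : MT) := congrArg Subtype.val h
  rw [repU_zC, zU_val] at h0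
  have h1 := congrFun (congrFun h0 0) 0
  rw [Matrix.scalar_apply, Matrix.diagonal_apply_eq, Matrix.one_apply_eq] at h1
  exact absurd h1 (by decide)

theorem exists_subgroup : ∃ H : Subgroup (Matrix.SpecialLinearGroup (Fin 45) (ZMod 7)),
    Nat.card (Subgroup.center H) = 3 ∧ Cfsg.IsON (H ⧸ Subgroup.center H) := by
  obtain ⟨hS, hN⟩ := Cfsg.Agent.S1699.result
  haveI := hS
  obtain ⟨H, h1, h2, h3⟩ := exists_range coverMap coverMap_surjective coverMap_ker zC_central orderOf_zC
    cover_commutator repSL repSL_zC (by rw [hN]; norm_num)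
  exact ⟨H, h1, h2, h3.trans hN⟩

end CfsgLib.ONRep
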